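-- Team project OELM (S5990, helper58), regime [R2E] (r = 2 = p, q even), sub-coordinator helper12.
-- Interface file: definitions, the sub-package statements and the assembly.
import Mathlib
import Cfsg.Prelude.Def_GeometricClasses
import Cfsg.Prelude.Def_Classical
import Cfsg.Agent.Lib.Helper23.OHyp.Defs
import Cfsg.Agent.Lib.Helper44.OElp.Defs
import Cfsg.Agent.Lib.Helper58.OElm.Defs
import Cfsg.Agent.Lib.Helper12.PHyp.T2EBasic

set_option autoImplicit false
set_option linter.unusedSectionVars false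
open scoped MatrixGroups
open Matrix

namespace Cfsg.Agent.Lib.Helper12.OElmE

open Cfsg.Agent.Lib.Helper23.OHyp Cfsg.Agent.Lib.Helper44.OElp Cfsg.Agent.Lib.Helper64.OParM
open Cfsg.Agent.Lib.Helper58.OElm Cfsg.Agent.Lib.Helper12.PHyp

universe u

section defs

variable {F : Type u} [Field F] {ι : Type} [Fintype ι] [DecidableEq ι]

/-- There is an `x`-invariant elliptic (nondegenerate, not of plus type) subspace of dimension
`m` inside `V`. -/
def EllIn (Q : (ι → F) → F) (x : Matrix ι ι F) (V : Submodule F (ι → F)) (m : ℕ) : Prop :=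
  ∃ W : Submodule F (ι → F), W ≤ V ∧ Inv x W ∧ Nd Q W ∧ ¬ Plus Q W ∧ Module.finrank F W = m

end defs

/-- [RPM] an invariant elliptic plane when `x` is not of a-type. -/
def PkgRPM : Prop :=
  ∀ (F : Type u) [Field F] [Fintype F] (ι : Type) [Fintype ι] [DecidableEq ι]
    (Q : (ι → F) → F) (x : Matrix ι ι F), Std2 Q x →
    ∀ V : Submodule F (ι → F), Inv x V → Nd Q V → 4 ≤ Module.finrank F V → ¬ AType Q x V →
      EllIn Q x V 2

/-- [DUAL] the orthogonal complement in `V` (not of plus type) of an invariant hyperbolic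
subspace is an invariant elliptic subspace. -/
def PkgDual : Prop :=
  ∀ (F : Type u) [Field F] [Fintype F] (ι : Type) [Fintype ι] [DecidableEq ι]
    (Q : (ι → F) → F) (x : Matrix ι ι F), Std2 Q x →
    ∀ V : Submodule F (ι → F), Inv x V → Nd Q V → ¬ Plus Q V →
    ∀ m' : ℕ, HypIn Q x V m' → EllIn Q x V (Module.finrank F V - m')

/-- [APLUS] a-type on a plus-type space: invariant hyperbolic `m₁`-spaces. -/
def PkgAPlus : Prop :=
  ∀ (F : Type u) [Field F] [Fintype F] (ι : Type) [Fintype ι] [DecidableEq ι]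
    (Q : (ι → F) → F) (x : Matrix ι ι F), Std2 Q x →
    ∀ V : Submodule F (ι → F), Inv x V → Nd Q V → AType Q x V → Plus Q V →
    ∀ m₁ : ℕ, Even m₁ → 2 * m₁ ≤ Module.finrank F V →
      (m₁ % 4 = 0 ∨ Module.finrank F V % 4 = 2) → HypIn Q x V m₁

/-- [ELLA] a-type on the whole space, which is not of plus type. -/
def PkgEllA : Prop :=
  ∀ (F : Type u) [Field F] [Fintype F] (ι : Type) [Fintype ι] [DecidableEq ι]
    (Q : (ι → F) → F) (x : Matrix ι ι F), Std2 Q x → ¬ Plus Q ⊤ → AType Q x ⊤ →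
    ∀ k m : ℕ, Fintype.card ι = 2 * k + 2 → Even m → 2 ≤ m → m ≤ 2 * k →
      (Odd k ∨ m % 4 = 2) → EllIn Q x ⊤ m

/-- [ELLB] not of a-type on the whole space, which is not of plus type. -/
def PkgEllB : Prop :=
  ∀ (F : Type u) [Field F] [Fintype F] (ι : Type) [Fintype ι] [DecidableEq ι]
    (Q : (ι → F) → F) (x : Matrix ι ι F), Std2 Q x → ¬ Plus Q ⊤ → ¬ AType Q x ⊤ →
    ∀ k m : ℕ, Fintype.card ι = 2 * k + 2 → 3 ≤ k → Even m → 2 ≤ m → m ≤ 2 * k →
      (Odd k ∨ m % 4 = 2) → EllIn Q x ⊤ m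

/-- [NECCRITM] a-type, and the nondegenerate subspaces of the fixed space have dimension at most
2: every invariant nondegenerate subspace of dimension divisible by 4 is of plus type. -/
def PkgNecCritM : Prop :=
  ∀ (F : Type u) [Field F] [Fintype F] (ι : Type) [Fintype ι] [DecidableEq ι]
    (Q : (ι → F) → F) (x : Matrix ι ι F), Std2 Q x → AType Q x ⊤ →
    (∀ W' : Submodule F (ι → F), W' ≤ fixSp x → Nd Q W' → Module.finrank F W' ≤ 2) →
    ∀ W : Submodule F (ι → F), Inv x W → Nd Q W → Module.finrank F W % 4 = 0 → Plus Q W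

/-- [NECELTM] the element `1 + S` (from the `f`-part to the `e`-part) of `Ω⁻` for `k` even. -/
def PkgNecEltM : Prop :=
  ∀ (F : Type u) [Field F] [Fintype F], (2 : F) = 0 → ∀ (k : ℕ) (a b : F), Aniso a b →
    4 ≤ k → Even k →
    ∃ x : GL (MI k) F, x ∈ Cfsg.Geo.omegaGL (Cfsg.quadFormMinus k F a b) ∧
      (x : Matrix (MI k) (MI k) F) * (x : Matrix (MI k) (MI k) F) = 1 ∧ x ≠ 1 ∧
      AType (Cfsg.quadFormMinus k F a b) (x : Matrix (MI k) (MI k) F) ⊤ ∧
      ∀ W' : Submodule F (MI k → F), W' ≤ fixSp (x : Matrix (MI k) (MI k) F) →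
        Nd (Cfsg.quadFormMinus k F a b) W' → Module.finrank F W' ≤ 2

/-- Assembly of the regime [R2E] of S5990. -/
theorem pkgR2E_of (hMQ : PkgMinusQE.{u}) (hEA : PkgEllA.{u}) (hEB : PkgEllB.{u})
    (hElt : PkgNecEltM.{u}) (hCrit : PkgNecCritM.{u}) : PkgR2E.{u} := by
  intro F _ _ h2 k m a b hab hk hm hme hmk
  obtain ⟨hQ, hnP⟩ := hMQ F k a b hab
  have h11 : (1 : F) + 1 = 0 := by rw [one_add_one_eq_two, h2]
  have hz1 : ∀ z : F, z * z = 1 → z = 1 := by
    intro z hz
    have h : (z + 1) * (z + 1) = 0 := by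
      have e : (z + 1) * (z + 1) = z * z + 2 * z + 1 := by ring
      rw [e, hz, h2, zero_mul, add_zero, h11]
    have h' : z + 1 = 0 := by
      rcases mul_eq_zero.1 h with h | h <;> exact h
    have e2 : z = -1 := eq_neg_of_add_eq_zero_left h'
    rw [e2]
    exact neg_eq_of_add_eq_zero_left h11
  have hcard : Fintype.card (MI k) = 2 * k + 2 := by
    simp [MI]
    ring
  constructor
  · intro hall
    by_contra hcon
    obtain ⟨hkodd, hm4⟩ := not_or.1 hcon
    have hke : Even k := by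
      rcases Nat.even_or_odd k with h | h
      · exact h
      · exact absurd h hkodd
    have hk4 : 4 ≤ k := by
      obtain ⟨j, hj⟩ := hke
      omega
    obtain ⟨x, hxΩ, hx2, hx1, hA, hfix⟩ := hElt F h2 k a b hab hk4 hke
    have hiso : ∀ v, Cfsg.quadFormMinus k F a b ((x : Matrix (MI k) (MI k) F) *ᵥ v) =
        Cfsg.quadFormMinus k F a b v := by
      obtain ⟨g, -, rfl⟩ := hxΩ
      intro v
      exact g.2 v v
    have hStd : Std2 (Cfsg.quadFormMinus k F a b) (x : Matrix (MI k) (MI k) F) :=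
      ⟨hQ, h2, hx2, hiso⟩
    have hns : ∀ z : F, (x : Matrix (MI k) (MI k) F) ≠ z • (1 : Matrix (MI k) (MI k) F) := by
      intro z hz
      have hzz : z * z = 1 := by
        have h := hx2
        rw [hz, Matrix.smul_mul, Matrix.one_mul, smul_smul] at h
        have h00 := congrFun (congrFun h (Sum.inr 0)) (Sum.inr 0)
        simpa using h00
      rw [hz1 z hzz, one_smul] at hz
      exact hx1 (Units.ext hz)
    have hpow : ((x ^ 2 : GL (MI k) F) : Matrix (MI k) (MI k) F) =
        (1 : F) • (1 : Matrix (MI k) (MI k) F) := by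
      rw [Units.val_pow_eq_pow_val, pow_two, hx2, one_smul]
    obtain ⟨W, ⟨hf, hnd, hnp⟩, hinv⟩ := hall x hxΩ ⟨1, hpow⟩ hns
    have hm0 : m % 4 = 0 := by
      obtain ⟨j, hj⟩ := hme
      omega
    exact hnp (hCrit F _ _ _ hStd hA hfix W hinv hnd (by rw [hf]; exact hm0))
  · intro hkm x hxΩ hzex hns
    obtain ⟨z, hz⟩ := hzex
    have hiso : ∀ v, Cfsg.quadFormMinus k F a b ((x : Matrix (MI k) (MI k) F) *ᵥ v) =
        Cfsg.quadFormMinus k F a b v := by
      obtain ⟨g, -, rfl⟩ := hxΩ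
      intro v
      exact g.2 v v
    have hpow : (x : Matrix (MI k) (MI k) F) * (x : Matrix (MI k) (MI k) F) =
        z • (1 : Matrix (MI k) (MI k) F) := by
      rw [← hz, Units.val_pow_eq_pow_val, pow_two]
    have hzz : z * z = 1 := by
      let v₀ : MI k → F := Pi.single (Sum.inr 0) 1
      have hv₀ : Cfsg.quadFormMinus k F a b v₀ = 1 := by
        simp [Cfsg.quadFormMinus, v₀]
      have h1 : Cfsg.quadFormMinus k F a b ((x : Matrix (MI k) (MI k) F) *ᵥ
          ((x : Matrix (MI k) (MI k) F) *ᵥ v₀)) = Cfsg.quadFormMinus k F a b v₀ := by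
        rw [hiso, hiso]
      rw [Matrix.mulVec_mulVec, hpow, Matrix.smul_mulVec, Matrix.one_mulVec, hQ.smul, hv₀,
        mul_one, pow_two] at h1
      exact h1
    have hx2 : (x : Matrix (MI k) (MI k) F) * (x : Matrix (MI k) (MI k) F) = 1 := by
      rw [hpow, hz1 z hzz, one_smul]
    have hStd : Std2 (Cfsg.quadFormMinus k F a b) (x : Matrix (MI k) (MI k) F) :=
      ⟨hQ, h2, hx2, hiso⟩
    have key : EllIn (Cfsg.quadFormMinus k F a b) (x : Matrix (MI k) (MI k) F) ⊤ m := by
      by_cases hA : AType (Cfsg.quadFormMinus k F a b) (x : Matrix (MI k) (MI k) F) ⊤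
      · exact hEA F _ _ _ hStd hnP hA k m hcard hme hm hmk hkm
      · exact hEB F _ _ _ hStd hnP hA k m hcard hk hme hm hmk hkm
    obtain ⟨W, -, hI, hN, hnp, hf⟩ := key
    exact ⟨W, ⟨hf, hN, hnp⟩, hI⟩

end Cfsg.Agent.Lib.Helper12.OElmE
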