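-- Team project OELM (S5990), regime [R2E]: package [RPM] (an invariant elliptic plane).
import Mathlib
import Cfsg.Agent.Lib.Helper94.Refl
import Cfsg.Agent.Lib.Helper87.OHyp.Perp
import Cfsg.Agent.Lib.Helper12.PHyp.T2EAB
import Cfsg.Agent.Lib.Helper12.OElmE.Defs

set_option autoImplicit false
set_option linter.unusedSectionVars false
open scoped MatrixGroups
open Matrix

namespace Cfsg.Agent.Lib.Helper12.OElmE

open Cfsg.Agent.Lib.Helper23.OHyp
open Cfsg.Agent.Lib.Helper94
open Cfsg.Agent.Lib.Helper12.PHyp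

universe u

/-- In a finite field of characteristic 2 some element is not of the form `z² + z`. -/
theorem exists_not_ap {F : Type u} [Field F] [Fintype F] (h2 : (2 : F) = 0) :
    ∃ τ : F, ∀ z : F, z * z + z ≠ τ := by
  by_contra hcon
  have hsurj : Function.Surjective (fun z : F => z * z + z) := by
    intro τ
    by_contra h
    apply hcon
    refine ⟨τ, fun z hz => h ⟨z, hz⟩⟩
  have hinj := Finite.injective_iff_surjective.2 hsurj
  have h01 : (0 : F) = 1 := by
    apply hinj
    show (0 : F) * 0 + 0 = 1 * 1 + 1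
    rw [mul_zero, zero_add, one_mul, one_add_one_eq_two, h2]
  exact zero_ne_one h01

/-- The invariant plane `span {x v + v, v}` with `Q v = c τ`, `c = polar v (x v) ≠ 0`,
`τ` not of the form `z² + z`, is not of plus type. -/
theorem plane_not_plus {F : Type u} [Field F] {ι : Type} [Fintype ι] [DecidableEq ι]
    {Q : (ι → F) → F} {x : Matrix ι ι F} (hS : Std2 Q x) (v : ι → F) (τ : F)
    (hτ : ∀ z : F, z * z + z ≠ τ)
    (hc : QuadraticMap.polar Q v (x *ᵥ v) ≠ 0)
    (hQv : Q v = QuadraticMap.polar Q v (x *ᵥ v) * τ) :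
    ¬ Plus Q (Submodule.span F {x *ᵥ v + v, v}) := by
  have hQ := hS.nondeg
  have p_z_v : QuadraticMap.polar Q (x *ᵥ v + v) v = QuadraticMap.polar Q v (x *ᵥ v) := by
    rw [QuadraticMap.polar_comm, padd_right hQ, hS.pself, add_zero]
  have hne : QuadraticMap.polar Q (x *ᵥ v + v) v ≠ 0 := by
    rw [p_z_v]
    exact hc
  have hP := plane_nd hQ (x *ᵥ v + v) v (hS.pself _) (hS.pself v) hne
  rintro ⟨U, hU, hts, hf⟩
  rw [hP.2] at hf
  have hU1 : Module.finrank F U = 1 := by omega
  have hUne : U ≠ ⊥ := by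
    rintro rfl
    rw [finrank_bot] at hU1
    omega
  obtain ⟨w, hwU, hw0⟩ := Submodule.exists_mem_ne_zero_of_ne_bot hUne
  obtain ⟨s, t, rfl⟩ := Submodule.mem_span_pair.1 (hU hwU)
  have hQw := hts _ hwU
  rw [Q_add (Q := Q), hQ.smul, hQ.smul, hS.qn, hQv] at hQw
  have e1 : QuadraticMap.polar Q (s • (x *ᵥ v + v)) (t • v) =
      s * (t * QuadraticMap.polar Q v (x *ᵥ v)) := by
    rw [psmul_left hQ, psmul_right hQ, p_z_v]
  simp only [pol] at hQw
  rw [e1] at hQw
  have key : s * s + s * t + τ * (t * t) = 0 := by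
    have h3 : QuadraticMap.polar Q v (x *ᵥ v) * (s * s + s * t + τ * (t * t)) = 0 := by
      rw [← hQw]
      ring
    rcases mul_eq_zero.1 h3 with h | h
    · exact absurd h hc
    · exact h
  by_cases ht : t = 0
  · rw [ht] at key
    have hs : s = 0 := by
      have : s * s = 0 := by simpa using key
      rcases mul_eq_zero.1 this with h | h <;> exact h
    apply hw0
    rw [hs, ht, zero_smul, zero_smul, add_zero]
  · have e : s * s + s * t = τ * (t * t) := by
      have h5 : s * s + s * t = -(τ * (t * t)) := eq_neg_of_add_eq_zero_left key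
      rw [h5]
      exact neg_eq_of_add_eq_zero_left (hS.add_self _)
    apply hτ (s / t)
    field_simp
    linear_combination e

theorem pkgRPM : PkgRPM.{u} := by
  intro F _ _ ι _ _ Q x hS V hI hN h4 hnA
  have hQ := hS.nondeg
  obtain ⟨v, hvV, hv⟩ : ∃ v ∈ V, QuadraticMap.polar Q v (x *ᵥ v) ≠ 0 := by
    by_contra hcon
    apply hnA
    intro v hv
    by_contra h
    exact hcon ⟨v, hv, h⟩
  obtain ⟨z, hz⟩ : ∃ z, z = x *ᵥ v + v := ⟨_, rfl⟩
  have hzV : z ∈ V := by
    rw [hz]
    exact V.add_mem (inv_mulVec_mem hI hvV) hvV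
  have xz : x *ᵥ z = z := by
    rw [hz]
    exact hS.xn v
  have xv : x *ᵥ v = v + z := by
    rw [hz]
    exact hS.x_eq v
  have p_v_z : QuadraticMap.polar Q v z ≠ 0 := by
    rw [hz, padd_right hQ, hS.pself, add_zero]
    exact hv
  have hP0 := plane_nd hQ v z (hS.pself v) (hS.pself z) p_v_z
  have mv : v ∈ Submodule.span F ({v, z} : Set (ι → F)) := Submodule.subset_span (by simp)
  have mz : z ∈ Submodule.span F ({v, z} : Set (ι → F)) := Submodule.subset_span (by simp)
  have hP0V : Submodule.span F {v, z} ≤ V := by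
    rw [Submodule.span_le]
    intro y hy
    simp only [Set.mem_insert_iff, Set.mem_singleton_iff] at hy
    rcases hy with h | h
    · rw [h]
      exact hvV
    · rw [h]
      exact hzV
  have hP0I : Inv x (Submodule.span F {v, z}) := by
    show Submodule.map (Matrix.toLin' x) _ ≤ _
    rw [Submodule.map_span_le]
    intro y hy
    rw [Matrix.toLin'_apply]
    simp only [Set.mem_insert_iff, Set.mem_singleton_iff] at hy
    rcases hy with h | h
    · rw [h, xv]
      exact Submodule.add_mem _ mv mz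
    · rw [h, xz]
      exact mz
  obtain ⟨V1, hV1V, hV1I, hV1N, hPerp, -, hf⟩ :=
    Cfsg.Agent.Lib.Helper87.OHyp.pkgPerp F ι Q hQ x hS.isom hS.det V _ hP0V hI hP0I hN hP0.1
  have hV1f : 2 ≤ Module.finrank F V1 := by
    rw [hP0.2] at hf
    omega
  obtain ⟨u0, hu0V, hu0φ, hu0Q⟩ :
      ∃ u0 ∈ V1, QuadraticMap.polar Q u0 (x *ᵥ u0) = 0 ∧ Q u0 ≠ 0 := by
    by_cases hA1 : ∃ u ∈ V1, QuadraticMap.polar Q u (x *ᵥ u) ≠ 0
    · obtain ⟨u, huV, hu⟩ := hA1
      refine ⟨x *ᵥ u + u, V1.add_mem (inv_mulVec_mem hV1I huV) huV, ?_, ?_⟩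
      · rw [hS.xn]
        exact hS.pself _
      · rw [hS.qn]
        exact hu
    · have hA1' : ∀ u ∈ V1, QuadraticMap.polar Q u (x *ᵥ u) = 0 := by
        intro u hu
        by_contra h
        exact hA1 ⟨u, hu, h⟩
      have hne : V1 ≠ ⊥ := by
        rintro rfl
        rw [finrank_bot] at hV1f
        omega
      obtain ⟨w, hwV, hw0⟩ := Submodule.exists_mem_ne_zero_of_ne_bot hne
      obtain ⟨y, hyV, hy⟩ := nd_right hV1N hwV hw0
      by_cases h1 : Q w = 0
      · by_cases h2 : Q y = 0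
        · refine ⟨w + y, V1.add_mem hwV hyV, hA1' _ (V1.add_mem hwV hyV), ?_⟩
          intro h3
          apply hy
          unfold QuadraticMap.polar
          rw [h3, h1, h2]
          ring
        · exact ⟨y, hyV, hA1' y hyV, h2⟩
      · exact ⟨w, hwV, hA1' w hwV, h1⟩
  obtain ⟨τ, hτ⟩ := exists_not_ap hS.two
  have hchar : CharP F 2 := CharTwo.of_one_ne_zero_of_two_eq_zero one_ne_zero hS.two
  obtain ⟨a, ha⟩ := FiniteField.isSquare_of_char_two (ringChar.eq F 2)
    ((QuadraticMap.polar Q v (x *ᵥ v) * τ + Q v) / Q u0)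
  obtain ⟨u, hu⟩ : ∃ u, u = a • u0 := ⟨_, rfl⟩
  have huV : u ∈ V1 := by
    rw [hu]
    exact V1.smul_mem _ hu0V
  have huQ : Q u = QuadraticMap.polar Q v (x *ᵥ v) * τ + Q v := by
    rw [hu, hQ.smul, pow_two, ← ha]
    field_simp
  have huφ : QuadraticMap.polar Q u (x *ᵥ u) = 0 := by
    rw [hu, Matrix.mulVec_smul, psmul_left hQ, psmul_right hQ, hu0φ]
    ring
  obtain ⟨v', hv'⟩ : ∃ v', v' = v + u := ⟨_, rfl⟩
  have p_v_u : QuadraticMap.polar Q v u = 0 := hPerp v mv u huV
  have p_v_xu : QuadraticMap.polar Q v (x *ᵥ u) = 0 := hPerp v mv _ (inv_mulVec_mem hV1I huV)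
  have p_u_xv : QuadraticMap.polar Q u (x *ᵥ v) = 0 := by
    rw [QuadraticMap.polar_comm]
    exact hPerp _ (inv_mulVec_mem hP0I mv) u huV
  have hv'φ : QuadraticMap.polar Q v' (x *ᵥ v') = QuadraticMap.polar Q v (x *ᵥ v) := by
    rw [hv', Matrix.mulVec_add, padd_left hQ, padd_right hQ, padd_right hQ, p_v_xu, p_u_xv, huφ]
    simp only [add_zero]
  have hv'Q : Q v' = QuadraticMap.polar Q v' (x *ᵥ v') * τ := by
    rw [hv'φ, hv', Q_add (Q := Q), huQ]
    show Q v + (QuadraticMap.polar Q v (x *ᵥ v) * τ + Q v) + QuadraticMap.polar Q v u = _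
    rw [p_v_u, add_zero, add_comm (QuadraticMap.polar Q v (x *ᵥ v) * τ) (Q v), ← add_assoc,
      hS.add_self, zero_add]
  have hv'c : QuadraticMap.polar Q v' (x *ᵥ v') ≠ 0 := by
    rw [hv'φ]
    exact hv
  have hv'V : v' ∈ V := by
    rw [hv']
    exact V.add_mem hvV (hV1V huV)
  have hz'V : x *ᵥ v' + v' ∈ V := V.add_mem (inv_mulVec_mem hI hv'V) hv'V
  have p_z'_v' : QuadraticMap.polar Q (x *ᵥ v' + v') v' ≠ 0 := by
    rw [QuadraticMap.polar_comm, padd_right hQ, hS.pself, add_zero]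
    exact hv'c
  have hP := plane_nd hQ (x *ᵥ v' + v') v' (hS.pself _) (hS.pself v') p_z'_v'
  have hPnp := plane_not_plus hS v' τ hτ hv'c hv'Q
  have mv' : v' ∈ Submodule.span F ({x *ᵥ v' + v', v'} : Set (ι → F)) :=
    Submodule.subset_span (by simp)
  have mz' : x *ᵥ v' + v' ∈ Submodule.span F ({x *ᵥ v' + v', v'} : Set (ι → F)) :=
    Submodule.subset_span (by simp)
  refine ⟨Submodule.span F {x *ᵥ v' + v', v'}, ?_, ?_, hP.1, hPnp, hP.2⟩
  · rw [Submodule.span_le]
    intro y hy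
    simp only [Set.mem_insert_iff, Set.mem_singleton_iff] at hy
    rcases hy with h | h
    · rw [h]
      exact hz'V
    · rw [h]
      exact hv'V
  · show Submodule.map (Matrix.toLin' x) _ ≤ _
    rw [Submodule.map_span_le]
    intro y hy
    rw [Matrix.toLin'_apply]
    simp only [Set.mem_insert_iff, Set.mem_singleton_iff] at hy
    rcases hy with h | h
    · rw [h, hS.xn]
      exact mz'
    · rw [h]
      have hmem := Submodule.add_mem _ mv' mz'
      rwa [← hS.x_eq v'] at hmem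

end Cfsg.Agent.Lib.Helper12.OElmE
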