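-- Team project OELM (S5990), regime [R2E] (r = 2 = p, q even): everything except [NECELTM].
import Mathlib
import Cfsg.Agent.Lib.Helper12.OElmE.Defs
import Cfsg.Agent.Lib.Helper12.OElmE.RPM
import Cfsg.Agent.Lib.Helper12.PHyp.T2EFinal
import Cfsg.Agent.Lib.Helper1.OElp.SumE
import Cfsg.Agent.Lib.Helper53.OElm.MinusQE
import Cfsg.Agent.Lib.Helper34.OElmE.Dual
import Cfsg.Agent.Lib.Helper34.OElmE.APlus
import Cfsg.Agent.Lib.Helper25.OElmE.NecCritM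
import Cfsg.Agent.Lib.Helper25.OElmE.EllA
import Cfsg.Agent.Lib.Helper65.OElmE.EllB

set_option autoImplicit false

namespace Cfsg.Agent.Lib.Helper12.OElmE

open Cfsg.Agent.Lib.Helper12.PHyp

universe u

theorem pkgDual : PkgDual.{u} :=
  Cfsg.Agent.Lib.Helper34.OElmE.pkgDual_of Cfsg.Agent.Lib.Helper87.OHyp.pkgPerp
    Cfsg.Agent.Lib.Helper1.OElp.pkgSumE Cfsg.Agent.Lib.Helper20.PHyp.pkgNdEven

theorem pkgAPlus : PkgAPlus.{u} :=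
  Cfsg.Agent.Lib.Helper34.OElmE.pkgAPlus_of pkgADec Cfsg.Agent.Lib.Helper20.PHyp.pkgGeom2
    pkgSumPlus Cfsg.Agent.Lib.Helper1.OElp.pkgSumE Cfsg.Agent.Lib.Helper20.PHyp.pkgNdEven

theorem pkgEllA : PkgEllA.{u} :=
  Cfsg.Agent.Lib.Helper25.OElmE.pkgEllA_of pkgADec Cfsg.Agent.Lib.Helper20.PHyp.pkgGeom2
    pkgDual Cfsg.Agent.Lib.Helper1.OElp.pkgSumE Cfsg.Agent.Lib.Helper20.PHyp.pkgNdEven

theorem pkgEllB : PkgEllB.{u} :=
  Cfsg.Agent.Lib.Helper65.OElmE.pkgEllB_of pkgRPM pkgPeel pkgAPlus pkgDual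
    Cfsg.Agent.Lib.Helper87.OHyp.pkgPerp Cfsg.Agent.Lib.Helper1.OElp.pkgSumE
    Cfsg.Agent.Lib.Helper20.PHyp.pkgNdEven

theorem pkgNecCritM : PkgNecCritM.{u} :=
  Cfsg.Agent.Lib.Helper25.OElmE.pkgNecCritM_of pkgADec

/-- Regime [R2E] of S5990 from the one remaining package [NECELTM]. -/
theorem pkgR2E_of_elt (hElt : PkgNecEltM.{u}) : Cfsg.Agent.Lib.Helper58.OElm.PkgR2E.{u} :=
  pkgR2E_of Cfsg.Agent.Lib.Helper53.OElm.pkgMinusQE pkgEllA pkgEllB hElt pkgNecCritM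

end Cfsg.Agent.Lib.Helper12.OElmE
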