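-- Team project OELM (S5990), regime [R2E] (r = 2 = p, q even): the final assembly.
import Mathlib
import Cfsg.Agent.Lib.Helper12.OElmE.Suf
import Cfsg.Agent.Lib.Helper83.OElmE.NecEltM

set_option autoImplicit false

namespace Cfsg.Agent.Lib.Helper12.OElmE

universe u

/-- Regime [R2E] of S5990, in helper58's interface shape. -/
theorem pkgR2E : Cfsg.Agent.Lib.Helper58.OElm.PkgR2E.{u} :=
  pkgR2E_of_elt Cfsg.Agent.Lib.Helper83.OElmE.pkgNecEltM

end Cfsg.Agent.Lib.Helper12.OElmE
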